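import Cfsg.Agent.H471.Eight.Pack

/-!
# ON has at least eight character degrees: certificates (helper471, for S4899)
-/

set_option autoImplicit false
set_option maxRecDepth 100000
set_option maxHeartbeats 4000000
set_option linter.unusedSectionVars false

namespace Cfsg.Agent.H471.Eight.CertON

open Cfsg Cfsg.Agent.Characters.Core Cfsg.Agent.H653.Sys Cfsg.Agent.H653.Sieve Cfsg.Agent.H471.Eight
open Cfsg.Agent.H664.Eight

universe u

def L : List (ℕ × ℕ) := [(31, 1), (19, 1), (11, 1), (7, 3), (5, 1), (3, 4), (2, 9)]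

def Ds : List PD := [⟨31, 1, 15, 2, [(0, 0), (1, 2), (15, -1), (16, 1), (30, -2)], 62, 2, true⟩,
  ⟨19, 1, 6, 3, [(0, 0), (1, 3), (6, -1), (13, 1), (18, -3)], 57, 3, true⟩,
  ⟨11, 1, 10, 1, [(0, 0), (1, 1), (10, -1)], 11, 0, false⟩]

def Cs : List Cond := [condEq 10944, condEq 26752, condEq 32395, condEq 52668]

/-- the table of the degrees and column values -/
def B : List (List (ℕ × List ℤ)) := [[],
  [(341, [0, -3, 0]), (868, [0, 1, -1]), (6138, [0, 3, 0]), (26334, [-1, 0, 0]), (40920, [0, 1, 0]), (58311, [0, 0, 0]), (90288, [1, 0, 0]), (110484, [0, -3, 0]), (130340, [1, 0, 1]), (238545, [0, 0, -1]), (388740, [0, 0, 0])],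
  [(342, [2, 0, 1]), (495, [-2, 3, 0]), (6479, [0, 0, 0]), (23870, [0, -1, 0]), (52668, [-2, 0, 0]), (64449, [0, 3, 0]), (84645, [-1, 0, 0]), (116622, [0, 0, 0]), (174592, [0, 3, 0]), (180576, [2, 0, 0]), (226765, [0, 0, 0]), (296856, [0, 0, -1]), (318990, [0, -3, 1]), (376960, [0, 0, 1]), (429660, [0, 1, 0])],
  [(836, [-2, 0, 0]), (6480, [2, 3, 1]), (6820, [0, -3, 0]), (24738, [0, 0, -1]), (46872, [0, -3, 1]), (58653, [2, 0, 1]), (64790, [0, 0, 0]), (116963, [0, -3, 0]), (122760, [0, 3, 0]), (174933, [0, 0, 0]), (291060, [2, -3, 0])],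
  [(837, [0, 3, 1]), (12958, [0, 0, 0]), (51072, [-1, 0, -1]), (53010, [0, 0, 1]), (100440, [0, -1, -1]), (169290, [-2, 0, 0]), (233244, [0, 0, 0]), (250635, [0, -1, 0]), (253440, [-1, -3, 0]), (453530, [0, 0, 0])],
  [(1178, [0, 0, 1]), (7315, [-2, 0, 0]), (19096, [0, 3, 0]), (25080, [2, 0, 0]), (45276, [1, -3, 0]), (48608, [0, -1, -1]), (111321, [0, 0, 1]), (141360, [0, 0, -1]), (181412, [0, 0, 0]), (291555, [0, 0, 0]), (343728, [0, -3, 0]), (621984, [0, 0, 0])],
  [(1519, [0, -3, 1]), (2046, [0, 1, 0]), (4851, [-1, -1, 0]), (19437, [0, 0, 0]), (36828, [0, -1, 0]), (71610, [0, -3, 0]), (129580, [0, 0, 0]), (169632, [0, 0, 1]), (175616, [2, -3, 1]), (182280, [0, 1, -1]), (349866, [0, 0, 0])],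
  [(31185, [-2, -1, 0]), (37696, [0, 0, -1]), (77748, [0, 0, 0]), (175770, [0, 3, 1]), (234080, [-2, 0, 0]), (408177, [0, 0, 0]), (518320, [0, 0, 0]), (611072, [0, 1, 0])],
  [(3255, [0, -1, -1]), (25916, [0, 0, 0]), (65968, [0, 0, 1]), (136059, [0, 0, 0]), (147840, [2, 3, 0]), (466488, [0, 0, 0])],
  [(77, [-1, 3, 0]), (14136, [0, 0, 1]), (26784, [0, 1, -1]), (63504, [1, -1, 1]), (66836, [0, 1, 0]), (194370, [0, 0, 0]), (414656, [0, 0, 0]), (460845, [-2, 0, 0]), (524799, [0, 0, 0]), (634942, [0, 0, 0])],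
  [(418, [-1, 0, 0]), (24320, [1, 0, -1]), (32395, [0, 0, 0]), (200508, [0, 3, 0]), (362824, [0, 0, 0]), (432915, [0, 0, -1]), (498960, [-1, 3, 0]), (583110, [0, 0, 0])],
  [(12540, [1, 0, 0]), (20615, [0, 0, 1]), (26752, [-2, 0, 0]), (32736, [0, -3, 0]), (90706, [0, 0, 0]), (207360, [2, 1, -1]), (218240, [0, -1, 0]), (310992, [0, 0, 0]), (589248, [0, 3, 0])],
  [(760, [1, 0, 1]), (21483, [0, 1, 0]), (38874, [0, 0, 0]), (117040, [-1, 0, 0]), (259160, [0, 0, 0]), (386694, [0, -1, 0]), (401280, [1, 0, 0]), (519498, [0, 0, 1]), (659680, [0, 0, -1])],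
  [(4960, [0, 3, -1]), (10944, [2, 0, -1]), (15840, [-2, 1, 0]), (85064, [0, 3, 1]), (97185, [0, 0, 0]), (114576, [0, -1, 0]), (143374, [-2, 0, 0]), (207328, [0, 0, 0]), (247380, [0, 0, 1]), (317471, [0, 0, 0]), (491568, [2, 0, 0])],
  [(5301, [0, 0, -1]), (13376, [-1, 0, 0]), (45353, [0, 0, 0]), (115444, [0, 0, -1]), (138105, [0, 1, 0]), (155496, [0, 0, 0]), (277760, [0, -3, -1]), (636120, [0, 0, 1])],
  [(32, [2, 1, -1]), (1596, [-1, 0, 1]), (10912, [0, -1, 0]), (63612, [0, 0, -1]), (71687, [-1, 0, 0]), (103664, [0, 0, 0]), (196416, [0, 1, 0]), (245784, [1, 0, 0]), (381920, [0, 3, 0]), (544236, [0, 0, 0])],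
  [(2464, [-1, 1, 0]), (5643, [2, 0, 0]), (11780, [0, 0, -1]), (27930, [-2, 0, 1]), (51832, [0, 0, 0]), (202027, [0, 0, 1]), (272118, [0, 0, 0]), (452352, [0, 0, -1]), (654720, [0, -3, 0])]]

def RS : List (ℕ × List ℕ) := [(31, [0, 1, 15, 16, 30]), (19, [0, 1, 6, 13, 18]), (11, [0, 1, 10])]

theorem hB : allDiv 460815505920 (tabD 460815505920 RS (Ds.map PD.fam) 17 B) L 1 = true := by decide +kernel

section

variable {S : Type u} [Group S] [Finite S] [Fintype (IrrCharacter S)]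

theorem tab [IsSimpleGroup S] (hN : Nat.card S = 460815505920) (hx : ∀ D ∈ Ds, D.Cent S) (hC : ∀ c ∈ Cs, c.Holds S) :
    Tab S (fun g : S => orderOf g) 460815505920 L (Ds.map PD.fam) Cs B.flatten :=
  Tab.of_primes hN (by norm_num) (by decide +kernel) (by decide +kernel) rfl (by decide +kernel) hx hB hC

variable {lab : S → ℕ}

def Q1 : List ℕ := [342, 760, 1178, 5301, 11780, 14136, 20615, 24738, 37696, 51072, 53010, 58653, 63612, 65968, 111321, 115444, 130340, 141360, 169632, 175616, 202027, 238545, 247380, 296856, 376960, 432915, 452352, 519498, 659680]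

theorem must_1 (C : Tab S lab 460815505920 L (Ds.map PD.fam) Cs B.flatten) : ∃ d ∈ Q1, d ∈ charDegrees S :=
  Tab.must C _ 26
    [⟨-61070, -29966661, 9527439817818, [3108125572747, -9364701573521]⟩, ⟨-1959418, 2072412928279, 18398939265375, [-9888349552]⟩, ⟨13058065, -18588082352018, 0, []⟩]
    [0, -21331823354, -26664779192, -76794564074] (by decide +kernel)

def Q2 : List ℕ := [32, 868, 2046, 3255, 10912, 15840, 21483, 23870, 26784, 31185, 36828, 40920, 48608, 66836, 100440, 114576, 138105, 182280, 196416, 207360, 218240, 250635, 386694, 429660, 611072]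

theorem must_2 (C : Tab S lab 460815505920 L (Ds.map PD.fam) Cs B.flatten) : ∃ d ∈ Q2, d ∈ charDegrees S :=
  Tab.must C _ 0
    [⟨0, 0, 4608155, [0, 0]⟩, ⟨0, 0, -4608155, [0]⟩, ⟨0, 0, 0, []⟩]
    [0, 0, 0, 0] (by decide +kernel)

def Q3 : List ℕ := [341, 837, 6138, 6480, 6820, 19096, 32736, 64449, 71610, 85064, 110484, 116963, 122760, 147840, 174592, 175770, 200508, 253440, 277760, 343728, 381920, 589248]

theorem must_3 (C : Tab S lab 460815505920 L (Ds.map PD.fam) Cs B.flatten) : ∃ d ∈ Q3, d ∈ charDegrees S :=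
  Tab.must C _ 2
    [⟨-23072, 53141126, 557719792772, [-197313054295, -107051636]⟩, ⟨-257532, -127739376921, 511222127480, [-384436809164]⟩, ⟨-23001, 25010651, 0, []⟩]
    [-378286091, -2521907270, -1576192044, -6809149629] (by decide +kernel)

end

/-- **Eight degrees**; `hx` : elements of prime order and their centralizers; `hK` : known degrees. -/
theorem eight {S : Type u} [Group S] [Finite S] [IsSimpleGroup S] (hN : Nat.card S = 460815505920)
    (hx : ∀ pk ∈ ([(31, 1), (19, 1), (11, 1)] : List (ℕ × ℕ)), ∃ x : S, orderOf x = pk.1 ∧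
      Nat.card (Subgroup.centralizer ({x} : Set S)) = pk.1 * pk.2)
    (hK : ∀ d ∈ ([10944, 26752, 32395, 52668] : List ℕ), d ∈ charDegrees S) :
    Eight S := by
  classical
  have := finite_irr (G := S)
  let _ := Fintype.ofFinite (IrrCharacter S)
  have T := tab (S := S) hN (by
    intro D hD
    simp only [Ds, List.mem_cons, List.not_mem_nil, or_false] at hD
    rcases hD with rfl | rfl | rfl
    · exact hx (31, 1) (by simp)
    · exact hx (19, 1) (by simp)
    · exact hx (11, 1) (by simp)) (by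
    intro c hc
    simp only [Cs, List.mem_cons, List.not_mem_nil, or_false] at hc
    rcases hc with rfl | rfl | rfl | rfl
    · exact condEq_holds (hK 10944 (by simp))
    · exact condEq_holds (hK 26752 (by simp))
    · exact condEq_holds (hK 32395 (by simp))
    · exact condEq_holds (hK 52668 (by simp)))
  refine eight_of_pack [10944, 26752, 32395, 52668] hK [(1, Q1), (1, Q2), (1, Q3)] ?_ 1 (by decide +kernel)
  intro q hq
  simp only [List.mem_cons, List.not_mem_nil, or_false] at hq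
  rcases hq with rfl | rfl | rfl
  · exact must_1 T
  · exact must_2 T
  · exact must_3 T

end Cfsg.Agent.H471.Eight.CertON
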